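import Cfsg.Agent.Screen.TwoGen.Orth.Main
import Cfsg.Agent.Forms.Models
import Cfsg.Agent.Forms.OrthBridgeSimple

/-!
# The split, odd and minus models satisfy the hypotheses of the two-generator theorem
-/

set_option autoImplicit false
set_option linter.unusedSectionVars false
set_option linter.unusedSimpArgs false

namespace Cfsg.Agent.Screen.TwoGen.Orth

open Cfsg.Agent.Forms
open Module (finrank)

variable {F : Type*} [Field F] [Fintype F]

/-- Generators in the split model. -/
theorem exists_two_plus (m : ℕ) (hm : 4 ≤ m) :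
    ∃ g₁ ∈ commutator (orthGroup (qPlus m F)), ∃ g₂ ∈ commutator (orthGroup (qPlus m F)),
      commutator (orthGroup (qPlus m F)) ≤ Subgroup.closure {g₁, g₂} := by
  classical
  set Q := qPlus m F with hQ
  set L : Fin m := ⟨m - 1, by omega⟩ with hL
  let ι : Fin (m - 1) → Fin m := fun i => ⟨i.val, by omega⟩
  let e : Fin (m - 1) → (Fin m ⊕ Fin m → F) := fun i => Pi.single (Sum.inl (ι i)) 1
  let f : Fin (m - 1) → (Fin m ⊕ Fin m → F) := fun i => Pi.single (Sum.inr (ι i)) 1
  have hval : ∀ x : Fin m ⊕ Fin m → F, Q x = ∑ i, x (Sum.inl i) * x (Sum.inr i) := fun x => by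
    rw [hQ, coe_qPlus]; rfl
  have hpl : ∀ (i : Fin m) (c : F) (x : Fin m ⊕ Fin m → F),
      QuadraticMap.polar Q (Pi.single (Sum.inl i) c) x = c * x (Sum.inr i) := fun i c x => by
    rw [hQ, polar_qPlus]; simp [Pi.single_apply, Finset.sum_add_distrib]
  have hpr : ∀ (i : Fin m) (c : F) (x : Fin m ⊕ Fin m → F),
      QuadraticMap.polar Q (Pi.single (Sum.inr i) c) x = c * x (Sum.inl i) := fun i c x => by
    rw [hQ, polar_qPlus]; simp [Pi.single_apply, Finset.sum_add_distrib, mul_comm]
  have hιinj : ∀ i j, (ι i = ι j) ↔ i = j := fun i j => by simp [ι, Fin.ext_iff]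
  have hιL : ∀ i, ι i ≠ L := fun i => by simp [ι, L, Fin.ext_iff]; omega
  have h : Hyp Q e f := {
    qe := fun i => by simp [hval, e, Pi.single_apply]
    qf := fun i => by simp [hval, f, Pi.single_apply]
    ee := fun i j => by simp [e, hpl, Pi.single_apply]
    ff := fun i j => by simp [f, hpr, Pi.single_apply]
    ef := fun i j => by simp [e, f, hpl, Pi.single_apply, hιinj] }
  set eL : Fin m ⊕ Fin m → F := Pi.single (Sum.inl L) 1 with heL
  set fL : Fin m ⊕ Fin m → F := Pi.single (Sum.inr L) 1 with hfL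
  set β : F := if (2 : F) = 0 then 0 else -1 with hβ
  set w : Fin (m - 1) := ⟨2, by omega⟩ with hw
  set a := e w + f w + eL with ha
  set b := eL + fL + β • e w with hb
  set v := eL + fL with hv
  have hQv : Q v = 1 := by
    rw [hv, QuadraticMap.map_add Q, heL, hfL, hpl]
    simp [hval, Pi.single_apply]
  have hQa : Q a = 1 := by
    rw [ha, QuadraticMap.map_add Q (e w + f w), QuadraticMap.map_add Q (e w), h.qe, h.qf, h.efs,
      QuadraticMap.polar_comm Q (e w + f w), heL, hpl]
    simp [hval, e, f, Pi.single_apply, hιL, (hιL w).symm]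
  have hvw : QuadraticMap.polar Q v (e w) = 0 := by
    simp [hv, heL, hfL, QuadraticMap.polar_add_left, hpl, hpr, e, Pi.single_apply, (hιL w).symm]
  have hQb : Q b = 1 := by
    rw [hb, QuadraticMap.map_add Q v, QuadraticMap.map_smul, h.qe, hQv,
      QuadraticMap.polar_smul_right, hvw]
    simp
  have hab : QuadraticMap.polar Q a b = β + 1 := by
    simp [ha, hb, hv, e, f, heL, hfL, QuadraticMap.polar_add_left, hpl, hpr, Pi.single_apply, hιL,
      (hιL w).symm]
    ring
  have hπ : ((2 : F) ≠ 0 ∧ QuadraticMap.polar Q a b = 0) ∨ ((2 : F) = 0 ∧ QuadraticMap.polar Q a b = 1) := by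
    by_cases h2 : (2 : F) = 0
    · exact Or.inr ⟨h2, by rw [hab, hβ, if_pos h2, zero_add]⟩
    · exact Or.inl ⟨h2, by rw [hab, hβ, if_neg h2, neg_add_cancel]⟩
  have hrest : ∀ x, Rest Q e f x → x = x (Sum.inl L) • eL + x (Sum.inr L) • fL := by
    intro x hx
    funext j
    have hz : ∀ j : Fin m, j ≠ L → x (Sum.inl j) = 0 ∧ x (Sum.inr j) = 0 := by
      intro j hj
      have hjv : j.val < m - 1 := by
        have := j.isLt
        simp [L, Fin.ext_iff] at hj
        omega
      have h1 := hx ⟨j.val, hjv⟩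
      simp only [e, f, hpl, hpr, one_mul] at h1
      exact ⟨h1.2, h1.1⟩
    rcases j with j | j <;> rcases eq_or_ne j L with hj | hj
    · simp [heL, hfL, hj]
    · simp [heL, hfL, hj, (hz j hj).1]
    · simp [heL, hfL, hj]
    · simp [heL, hfL, hj, (hz j hj).2]
  set y := -((β + 1) • eL) - β • fL with hy
  have hR : ∀ s t : F, Rest Q e f (s • eL + t • fL) := fun s t i => by
    simp [e, f, heL, hfL, hpl, hpr, Pi.single_apply, hιL, (hιL i).symm]
  refine exists_two (Q := Q) qPlus_nondegenerate (by rw [Module.finrank_pi]; simp; omega) h (by omega)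
    (a := a) (b := b) (v := v) (y := y) (fun i hi => ?_) (fun i hi => ?_) hQa hQb hπ ?_ ?_ ?_
    ⟨0, -(β * β) - 1, ?_⟩ ?_
  · have hne : w ≠ i := fun e => hi (by rw [← e])
    simp [ha, e, f, heL, hpl, hpr, Pi.single_apply, hιL, (hιL i).symm, hιinj, hne.symm]
  · have hne : w ≠ i := fun e => hi (by rw [← e])
    simp [hb, hv, e, f, heL, hfL, hpl, hpr, Pi.single_apply, hιL, (hιL i).symm, hιinj, hne.symm]
  · have := hR 1 1
    rwa [one_smul, one_smul] at this
  · rw [hQv]; exact one_ne_zero
  · have := hR (-(β + 1)) (-β)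
    rwa [neg_smul, neg_smul, ← sub_eq_add_neg] at this
  · have hbf : QuadraticMap.polar Q b (f w) = β := by
      simp [hb, hv, e, f, heL, hfL, QuadraticMap.polar_add_left, QuadraticMap.polar_smul_left, hpl, hpr,
        Pi.single_apply, hιL, (hιL w).symm]
    have haf : QuadraticMap.polar Q a (f w) = 1 := by
      simp [ha, e, f, heL, QuadraticMap.polar_add_left, hpl, hpr, Pi.single_apply, hιL, (hιL w).symm]
    have hβπ : β * (β + 1) = 0 := by rw [hβ]; split_ifs <;> simp
    rw [reflection_apply Q b, hQb, hbf, reflection_apply Q a, hQa, QuadraticMap.polar_sub_right,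
      QuadraticMap.polar_smul_right, haf, hab, ha, hb, hv, hy, smul_eq_mul]
    match_scalars <;>
      first
        | ring1
        | linear_combination hβπ
        | linear_combination -hβπ
  · intro x hx
    have hr : ∀ z : Fin m ⊕ Fin m → F, (reflection Q v : (Fin m ⊕ Fin m → F) ≃ₗ[F] _) z =
        z - QuadraticMap.polar Q v z • v := fun z => by rw [reflection_apply, hQv, inv_one, one_mul]
    have hve : QuadraticMap.polar Q v eL = 1 := by
      simp [hv, heL, hfL, QuadraticMap.polar_add_left, hpl, hpr, Pi.single_apply]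
    have hvf : QuadraticMap.polar Q v fL = 1 := by
      simp [hv, heL, hfL, QuadraticMap.polar_add_left, hpl, hpr, Pi.single_apply]
    have hry : (reflection Q v : (Fin m ⊕ Fin m → F) ≃ₗ[F] _) y = β • eL + (β + 1) • fL := by
      rw [hy, map_sub, map_neg, map_smul, map_smul, hr, hr, hve, hvf, hv]
      module
    by_cases h2 : (2 : F) = 0
    · refine ⟨-x (Sum.inl L), x (Sum.inr L), ?_⟩
      conv_lhs => rw [hrest x hx]
      rw [hry, hy, hβ, if_pos h2]
      module
    · refine ⟨x (Sum.inr L), -x (Sum.inl L), ?_⟩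
      conv_lhs => rw [hrest x hx]
      rw [hry, hy, hβ, if_neg h2]
      module

/-- Generators in the odd model. -/
theorem exists_two_odd (h2 : (2 : F) ≠ 0) (m : ℕ) (hm : 3 ≤ m) :
    ∃ g₁ ∈ commutator (orthGroup (qOdd m F)), ∃ g₂ ∈ commutator (orthGroup (qOdd m F)),
      commutator (orthGroup (qOdd m F)) ≤ Subgroup.closure {g₁, g₂} := by
  classical
  set Q := qOdd m F with hQ
  let e : Fin m → (Unit ⊕ (Fin m ⊕ Fin m) → F) := fun i => Pi.single (Sum.inr (Sum.inl i)) 1
  let f : Fin m → (Unit ⊕ (Fin m ⊕ Fin m) → F) := fun i => Pi.single (Sum.inr (Sum.inr i)) 1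
  set z : Unit ⊕ (Fin m ⊕ Fin m) → F := Pi.single (Sum.inl ()) 1 with hz
  have hval : ∀ x : Unit ⊕ (Fin m ⊕ Fin m) → F,
      Q x = x (Sum.inl ()) ^ 2 + ∑ i, x (Sum.inr (Sum.inl i)) * x (Sum.inr (Sum.inr i)) := fun x => by
    rw [hQ, coe_qOdd]; rfl
  have hpol : ∀ x y : Unit ⊕ (Fin m ⊕ Fin m) → F, QuadraticMap.polar Q x y =
      2 * (x (Sum.inl ()) * y (Sum.inl ())) + ∑ i, (x (Sum.inr (Sum.inl i)) * y (Sum.inr (Sum.inr i)) +
        y (Sum.inr (Sum.inl i)) * x (Sum.inr (Sum.inr i))) := fun x y => by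
    simp only [QuadraticMap.polar, hval, Pi.add_apply, mul_add, add_mul, Finset.sum_add_distrib]
    ring
  have h : Hyp Q e f := {
    qe := fun i => by simp [hval, e, Pi.single_apply]
    qf := fun i => by simp [hval, f, Pi.single_apply]
    ee := fun i j => by simp [hpol, e, Pi.single_apply]
    ff := fun i j => by simp [hpol, f, Pi.single_apply]
    ef := fun i j => by simp [hpol, e, f, Pi.single_apply, Finset.sum_add_distrib, eq_comm] }
  have hzi : ∀ i, QuadraticMap.polar Q (e i) z = 0 ∧ QuadraticMap.polar Q (f i) z = 0 := fun i => by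
    simp [hpol, e, f, hz, Pi.single_apply]
  have hzz : QuadraticMap.polar Q z z = 2 := by simp [hpol, hz, Pi.single_apply]
  have hQz : Q z = 1 := by simp [hval, hz, Pi.single_apply]
  have hzi' : ∀ i, QuadraticMap.polar Q z (e i) = 0 ∧ QuadraticMap.polar Q z (f i) = 0 := fun i => by
    rw [QuadraticMap.polar_comm Q z, QuadraticMap.polar_comm Q z]; exact hzi i
  set w : Fin m := ⟨2, by omega⟩ with hw
  refine exists_two (Q := Q) (qOdd_nondegenerate h2) (by rw [Module.finrank_pi]; simp; omega) h (by omega)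
    (a := e w + z) (b := (-2 : F) • f w + z) (v := z) (y := -z) (fun i hi => ?_) (fun i hi => ?_)
    ?_ ?_ (Or.inl ⟨h2, ?_⟩) hzi ?_ (fun i => ?_) ⟨1, -1, ?_⟩ ?_
  · have hne : i ≠ w := fun e => hi (by rw [e])
    simp [QuadraticMap.polar_add_right, h.ee, h.fen hne, hzi i]
  · have hne : i ≠ w := fun e => hi (by rw [e])
    simp [QuadraticMap.polar_add_right, QuadraticMap.polar_smul_right, h.ff, h.efn hne, hzi i]
  · rw [QuadraticMap.map_add Q, h.qe, hQz, (hzi w).1]; simp
  · rw [QuadraticMap.map_add Q, QuadraticMap.map_smul, h.qf, hQz, QuadraticMap.polar_smul_left, (hzi w).2]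
    simp
  · simp [QuadraticMap.polar_add_left, QuadraticMap.polar_add_right, QuadraticMap.polar_smul_right,
      h.efs, hzz, hzi w, hzi' w]
  · rw [hQz]; exact one_ne_zero
  · simp [QuadraticMap.polar_neg_right, hzi i]
  · rw [reflection_fix Q (show QuadraticMap.polar Q ((-2 : F) • f w + z) (f w) = 0 by
      rw [QuadraticMap.polar_add_left, QuadraticMap.polar_smul_left, h.ff, (hzi' w).2]; simp),
      reflection_apply, QuadraticMap.polar_add_left, h.efs, (hzi' w).2, QuadraticMap.map_add Q, h.qe, hQz,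
      (hzi w).1]
    match_scalars <;> simp
  · intro x hx
    refine ⟨-x (Sum.inl ()), 0, ?_⟩
    funext j
    rcases j with u | i | i
    · simp [hz, Pi.single_apply]
    · have := (hx i).2
      simp [hpol, f, Pi.single_apply] at this
      simp [hz, this]
    · have := (hx i).1
      simp [hpol, e, Pi.single_apply] at this
      simp [hz, this]

/-- Generators in the minus model. -/
theorem exists_two_minus (m : ℕ) (hm : 3 ≤ m) (c d : F)
    (hcd : ∀ z₁ z₂ : F, z₁ ^ 2 + c * z₁ * z₂ + d * z₂ ^ 2 = 0 → z₁ = 0 ∧ z₂ = 0) :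
    ∃ g₁ ∈ commutator (orthGroup (qMinus m F c d)), ∃ g₂ ∈ commutator (orthGroup (qMinus m F c d)),
      commutator (orthGroup (qMinus m F c d)) ≤ Subgroup.closure {g₁, g₂} := by
  classical
  set Q := qMinus m F c d with hQ
  let e : Fin m → ((Fin m ⊕ Fin m) ⊕ Fin 2 → F) := fun i => Pi.single (Sum.inl (Sum.inl i)) 1
  let f : Fin m → ((Fin m ⊕ Fin m) ⊕ Fin 2 → F) := fun i => Pi.single (Sum.inl (Sum.inr i)) 1
  set z : (Fin m ⊕ Fin m) ⊕ Fin 2 → F := Pi.single (Sum.inr 0) 1 with hz
  set z' : (Fin m ⊕ Fin m) ⊕ Fin 2 → F := Pi.single (Sum.inr 1) 1 with hz'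
  have hval : ∀ x : (Fin m ⊕ Fin m) ⊕ Fin 2 → F,
      Q x = (∑ i, x (.inl (.inl i)) * x (.inl (.inr i))) +
        (x (.inr 0) ^ 2 + c * x (.inr 0) * x (.inr 1) + d * x (.inr 1) ^ 2) := fun x => by
    rw [hQ, coe_qMinus]; rfl
  have hpol := polar_qMinus (F := F) m c d
  rw [← hQ] at hpol
  have h : Hyp Q e f := {
    qe := fun i => by simp [hval, e, Pi.single_apply]
    qf := fun i => by simp [hval, f, Pi.single_apply]
    ee := fun i j => by simp [hpol, e, Pi.single_apply]
    ff := fun i j => by simp [hpol, f, Pi.single_apply]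
    ef := fun i j => by simp [hpol, e, f, Pi.single_apply, Finset.sum_add_distrib, eq_comm] }
  have hrest : ∀ s t : F, Rest Q e f (s • z + t • z') := fun s t i => by
    simp [hpol, e, f, hz, hz', Pi.single_apply]
  have hzi : ∀ i, QuadraticMap.polar Q (e i) z = 0 ∧ QuadraticMap.polar Q (f i) z = 0 := by
    have := hrest 1 0
    rwa [one_smul, zero_smul, add_zero] at this
  have hzi' : ∀ i, QuadraticMap.polar Q z (e i) = 0 ∧ QuadraticMap.polar Q z (f i) = 0 := fun i => by
    rw [QuadraticMap.polar_comm Q z, QuadraticMap.polar_comm Q z]; exact hzi i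
  have hzz : QuadraticMap.polar Q z z = 2 := by simp [hpol, hz, Pi.single_apply]
  have hQz : Q z = 1 := by simp [hval, hz, Pi.single_apply]
  set w : Fin m := ⟨2, by omega⟩ with hw
  set μ : F := if (2 : F) = 0 then 1 else -2 with hμ
  have hab : QuadraticMap.polar Q (e w + z) (μ • f w + z) = μ + 2 := by
    simp [QuadraticMap.polar_add_left, QuadraticMap.polar_add_right, QuadraticMap.polar_smul_right,
      h.efs, hzz, hzi w, hzi' w]
  have hπ : ((2 : F) ≠ 0 ∧ QuadraticMap.polar Q (e w + z) (μ • f w + z) = 0) ∨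
      ((2 : F) = 0 ∧ QuadraticMap.polar Q (e w + z) (μ • f w + z) = 1) := by
    by_cases h2 : (2 : F) = 0
    · exact Or.inr ⟨h2, by rw [hab, hμ, if_pos h2, h2, add_zero]⟩
    · exact Or.inl ⟨h2, by rw [hab, hμ, if_neg h2, neg_add_cancel]⟩
  obtain ⟨t, ht, htc⟩ : ∃ t : F, t ≠ 0 ∧ 2 + t * c ≠ 0 := by
    by_cases h1 : 2 + c = 0
    · by_cases h2 : (2 : F) = 0
      · exfalso
        have hc : c = 0 := by linear_combination h1 - h2
        haveI : CharP F 2 := CharTwo.of_one_ne_zero_of_two_eq_zero one_ne_zero h2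
        obtain ⟨s, hs⟩ := (frobeniusEquiv F 2).surjective d
        have e' : s ^ 2 = d := by simpa [frobeniusEquiv_apply, frobenius_def] using hs
        exact one_ne_zero (hcd s 1 (by rw [hc]; linear_combination e' + d * h2)).2
      · refine ⟨-1, neg_ne_zero.2 one_ne_zero, fun h3 => h2 ?_⟩
        have h4 : (2 : F) * 2 = 0 := by linear_combination h1 + h3
        rcases mul_eq_zero.1 h4 with h | h <;> exact h
    · exact ⟨1, one_ne_zero, by rwa [one_mul]⟩
  set v := z + t • z' with hv
  have hQv : Q v ≠ 0 := fun h0 => one_ne_zero (α := F) (hcd 1 t (by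
    simpa [hval, hv, hz, hz', Pi.single_apply] using h0)).1
  have hvz : QuadraticMap.polar Q v z = 2 + t * c := by
    simp [hv, hz, hz', hpol, Pi.single_apply]; ring
  refine exists_two (Q := Q) (qMinus_nondegenerate c d (disc_ne_zero hcd))
    (by rw [Module.finrank_pi]; simp; omega) h (by omega)
    (a := e w + z) (b := μ • f w + z) (v := v) (y := -z) (fun i hi => ?_) (fun i hi => ?_)
    ?_ ?_ hπ ?_ hQv (fun i => ?_) ⟨1, -1, ?_⟩ ?_
  · have hne : i ≠ w := fun e => hi (by rw [e])
    simp [QuadraticMap.polar_add_right, h.ee, h.fen hne, hzi i]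
  · have hne : i ≠ w := fun e => hi (by rw [e])
    simp [QuadraticMap.polar_add_right, QuadraticMap.polar_smul_right, h.ff, h.efn hne, hzi i]
  · rw [QuadraticMap.map_add Q, h.qe, hQz, (hzi w).1]; simp
  · rw [QuadraticMap.map_add Q, QuadraticMap.map_smul, h.qf, hQz, QuadraticMap.polar_smul_left, (hzi w).2]
    simp
  · have := hrest 1 t
    rwa [one_smul] at this
  · simp [QuadraticMap.polar_neg_right, hzi i]
  · rw [reflection_fix Q (show QuadraticMap.polar Q (μ • f w + z) (f w) = 0 by
      rw [QuadraticMap.polar_add_left, QuadraticMap.polar_smul_left, h.ff, (hzi' w).2]; simp),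
      reflection_apply, QuadraticMap.polar_add_left, h.efs, (hzi' w).2, QuadraticMap.map_add Q, h.qe, hQz,
      (hzi w).1]
    match_scalars <;> simp
  · intro x hx
    have hxw : x = x (Sum.inr 0) • z + x (Sum.inr 1) • z' := by
      funext j
      rcases j with (i | i) | i
      · have := (hx i).2
        simp [hpol, f, Pi.single_apply] at this
        simp [hz, hz', this]
      · have := (hx i).1
        simp [hpol, e, Pi.single_apply] at this
        simp [hz, hz', this]
      · fin_cases i <;> simp [hz, hz', Pi.single_apply]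
    set κ := (Q v)⁻¹ * (2 + t * c) with hκ
    have hκ0 : κ ≠ 0 := mul_ne_zero (inv_ne_zero hQv) htc
    have hry : (reflection Q v : ((Fin m ⊕ Fin m) ⊕ Fin 2 → F) ≃ₗ[F] _) (-z) = -z + κ • v := by
      rw [map_neg, reflection_apply, hvz, ← hκ]; module
    refine ⟨x (Sum.inr 1) / (κ * t) * (κ - 1) - x (Sum.inr 0), x (Sum.inr 1) / (κ * t), ?_⟩
    conv_lhs => rw [hxw]
    rw [hry, hv]
    match_scalars <;> field_simp <;> ring

end Cfsg.Agent.Screen.TwoGen.Orth
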