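import Cfsg.Agent.Forms.OrthSimple

/-!
# Root elements inside a subgroup of an orthogonal group

`Mem H a w` says that the Eichler transformation at the singular point `a` by `w` lies in `H`.
The lemmas here are the commutator relations needed to grow such memberships.
-/

set_option autoImplicit false
set_option linter.unusedSectionVars false
set_option linter.unusedSimpArgs false

namespace Cfsg.Agent.Screen.TwoGen.Orth

open Module Cfsg.Agent.Forms

variable {F V : Type*} [Field F] [AddCommGroup V] [Module F V] {Q : QuadraticForm F V}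

local notation "P" => QuadraticMap.polar Q

/-- The Eichler transformation at `a` by `w` is defined and lies in `H`. -/
def Mem (H : Subgroup (orthGroup Q)) (a w : V) : Prop :=
  ∃ (ha : Q a = 0) (hw : P a w = 0), eichler Q a w ha hw ∈ H

/-- Some non-zero multiple of `b` occurs at `a`. -/
def Has (H : Subgroup (orthGroup Q)) (a b : V) : Prop := ∃ t : F, t ≠ 0 ∧ Mem H a (t • b)

/-- All multiples of `b` occur at `a`. -/
def Lin (H : Subgroup (orthGroup Q)) (a b : V) : Prop := ∀ t : F, Mem H a (t • b)

/-- Two singular orthogonal vectors. -/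
structure Orth2 (Q : QuadraticForm F V) (a b : V) : Prop where
  qa : Q a = 0
  qb : Q b = 0
  ab : QuadraticMap.polar Q a b = 0

theorem Orth2.symm {a b : V} (h : Orth2 Q a b) : Orth2 Q b a :=
  ⟨h.qb, h.qa, by rw [QuadraticMap.polar_comm, h.ab]⟩

variable {H : Subgroup (orthGroup Q)}

theorem mem_zero {a : V} (ha : Q a = 0) : Mem H a 0 := by
  have h : P a 0 = 0 := by simp [QuadraticMap.polar]
  exact ⟨ha, h, by rw [eichler_zero ha h]; exact H.one_mem⟩

theorem Mem.add {a v w : V} (h : Mem H a v) (h' : Mem H a w) : Mem H a (v + w) := by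
  obtain ⟨ha, hv, hm⟩ := h
  obtain ⟨_, hw, hm'⟩ := h'
  have := H.mul_mem hm hm'
  rw [eichler_mul ha hv hw] at this
  exact ⟨ha, _, this⟩

theorem Mem.neg {a w : V} (h : Mem H a w) : Mem H a (-w) := by
  obtain ⟨ha, hw, hm⟩ := h
  have hn : P a (-w) = 0 := by rw [QuadraticMap.polar_neg_right, hw, neg_zero]
  refine ⟨ha, hn, ?_⟩
  have e : eichler Q a (-w) ha hn = (eichler Q a w ha hw)⁻¹ := by
    refine eq_inv_of_mul_eq_one_left (orth_ext fun y => ?_)
    rw [orth_mul_apply, eichler_apply, eichler_apply, eichlerMap_comp ha hn hw, neg_add_cancel,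
      eichlerMap_zero]
    rfl
  rw [e]
  exact H.inv_mem hm

theorem Mem.sub {a v w : V} (h : Mem H a v) (h' : Mem H a w) : Mem H a (v - w) := by
  rw [sub_eq_add_neg]; exact h.add h'.neg

theorem Mem.conj {a w : V} (h : Mem H a w) {g : orthGroup Q} (hg : g ∈ H) :
    Mem H ((g : V ≃ₗ[F] V) a) ((g : V ≃ₗ[F] V) w) := by
  obtain ⟨ha, hw, hm⟩ := h
  have := H.mul_mem (H.mul_mem hg hm) (H.inv_mem hg)
  rw [conj_eichler g ha hw] at this
  exact ⟨_, _, this⟩

theorem Mem.smul_left {a w : V} {c : F} (h : Mem H a (c • w)) (hw : P a w = 0) : Mem H (c • a) w := by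
  obtain ⟨ha, hcw, hm⟩ := h
  refine ⟨by rw [QuadraticMap.map_smul, ha, smul_zero],
    by rw [QuadraticMap.polar_smul_left, hw, smul_zero], ?_⟩
  rwa [eichler_smul c ha hw]

theorem Mem.of_smul_left {a w : V} {c : F} (h : Mem H (c • a) w) (ha : Q a = 0) (hw : P a w = 0) :
    Mem H a (c • w) := by
  obtain ⟨hca, hcw, hm⟩ := h
  refine ⟨ha, by rw [QuadraticMap.polar_smul_right, hw, smul_zero], ?_⟩
  rwa [← eichler_smul c ha hw]

theorem Mem.swap {a b : V} {t : F} (h : Mem H a (t • b)) (hab : Orth2 Q a b) :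
    Mem H b ((-t) • a) := by
  obtain ⟨ha, hw, hm⟩ := h
  have hw' : P b ((-t) • a) = 0 := by rw [QuadraticMap.polar_smul_right, hab.symm.ab, smul_zero]
  refine ⟨hab.qb, hw', ?_⟩
  have e : eichler Q b ((-t) • a) hab.qb hw' = eichler Q a (t • b) ha hw := by
    refine orth_ext fun y => ?_
    simp only [eichler_apply, eichlerMap_apply, QuadraticMap.map_smul, hab.qa, hab.qb,
      QuadraticMap.polar_smul_left, smul_eq_mul]
    module
  rw [e]
  exact hm

theorem Has.symm {a b : V} (h : Has H a b) (hab : Orth2 Q a b) : Has H b a := by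
  obtain ⟨t, ht, hm⟩ := h
  exact ⟨-t, neg_ne_zero.2 ht, hm.swap hab⟩

theorem Lin.symm {a b : V} (h : Lin H a b) (hab : Orth2 Q a b) : Lin H b a := fun t => by
  have := (h (-t)).swap hab
  rwa [neg_neg] at this

theorem Lin.has {a b : V} (h : Lin H a b) : Has H a b := ⟨1, one_ne_zero, h 1⟩

/-- The commutator relation. -/
theorem Mem.bracket {a b b' c : V} {t s : F} (h : Mem H a (t • b)) (h' : Mem H b' (s • c))
    (hbb : P b b' = 1) (hab' : P a b' = 0) (hac : Orth2 Q a c) (hbc : P b c = 0)
    (hb'c : Orth2 Q b' c) : Mem H a ((t * s) • c) := by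
  obtain ⟨ha, hw, hm⟩ := h
  have e1 : (eichler Q a (t • b) ha hw : V ≃ₗ[F] V) b' = b' - t • a := by
    rw [eichler_apply, eichlerMap_apply, hab', QuadraticMap.polar_smul_left, hbb]
    simp
  have e2 : (eichler Q a (t • b) ha hw : V ≃ₗ[F] V) c = c := by
    rw [eichler_apply, eichlerMap_apply, hac.ab, QuadraticMap.polar_smul_left, hbc]
    simp
  have h1 := h'.conj hm
  rw [map_smul, e1, e2] at h1
  have hd : Orth2 Q (b' - t • a) c := by
    refine ⟨?_, hb'c.qb, ?_⟩
    · exact h1.1
    · rw [sub_eq_add_neg, ← neg_smul, QuadraticMap.polar_add_left, QuadraticMap.polar_smul_left,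
        hb'c.ab, hac.ab, smul_zero, add_zero]
  have h2 := h1.swap hd
  have h3 := (h'.swap hb'c).neg
  have h4 := h2.add h3
  rw [show (-s) • (b' - t • a) + -((-s) • b') = (t * s) • a by module] at h4
  have h5 := (h4.swap hac.symm).neg
  rwa [neg_smul, neg_neg] at h5

theorem Has.bracket {a b b' c : V} (h : Has H a b) (h' : Has H b' c)
    (hbb : P b b' = 1) (hab' : P a b' = 0) (hac : Orth2 Q a c) (hbc : P b c = 0)
    (hb'c : Orth2 Q b' c) : Has H a c := by
  obtain ⟨t, ht, hm⟩ := h
  obtain ⟨s, hs, hm'⟩ := h'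
  exact ⟨t * s, mul_ne_zero ht hs, hm.bracket hm' hbb hab' hac hbc hb'c⟩

theorem Lin.bracket {a b b' c : V} (h : Lin H a b) (h' : Has H b' c)
    (hbb : P b b' = 1) (hab' : P a b' = 0) (hac : Orth2 Q a c) (hbc : P b c = 0)
    (hb'c : Orth2 Q b' c) : Lin H a c := by
  obtain ⟨s, hs, hm'⟩ := h'
  intro t
  have := (h (t / s)).bracket hm' hbb hab' hac hbc hb'c
  rwa [div_mul_cancel₀ _ hs] at this

/-- Moving a non-singular parameter to a second point. -/
theorem Mem.move {a a' b w : V} (h : Mem H a w) (hL : Lin H a' b) (hL' : Lin H a' a)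
    (haa : Orth2 Q a a') (hba : P b a = 1) (ha'w : P a' w = 0) (hbw : P b w = 0) :
    Lin H a' w := by
  intro k
  obtain ⟨ha', hwb, hm⟩ := hL (-k)
  obtain ⟨ha, hw, hmw⟩ := id h
  have e1 : (eichler Q a' ((-k) • b) ha' hwb : V ≃ₗ[F] V) a = a + k • a' := by
    rw [eichler_apply, eichlerMap_apply, haa.symm.ab, QuadraticMap.polar_smul_left, hba]
    simp
  have e2 : (eichler Q a' ((-k) • b) ha' hwb : V ≃ₗ[F] V) w = w := by
    rw [eichler_apply, eichlerMap_apply, ha'w, QuadraticMap.polar_smul_left, hbw]
    simp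
  have h1 := h.conj hm
  rw [e1, e2] at h1
  obtain ⟨hs, hsw, hms⟩ := h1
  have hk : Q (k • a') = 0 := by rw [QuadraticMap.map_smul, haa.qb, smul_zero]
  have hkw : P (k • a') w = 0 := by rw [QuadraticMap.polar_smul_left, ha'w, smul_zero]
  obtain ⟨hk', hkq, hmq⟩ : Mem H (k • a') (Q w • a) :=
    Mem.smul_left (by rw [smul_smul]; exact hL' _)
      (by rw [QuadraticMap.polar_smul_right, haa.symm.ab, smul_zero])
  have e : eichler Q (k • a') w hk hkw =
      (eichler Q a w ha hw)⁻¹ * eichler Q (a + k • a') w hs hsw * (eichler Q (k • a') (Q w • a) hk' hkq)⁻¹ := by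
    rw [mul_assoc, eq_inv_mul_iff_mul_eq, eq_mul_inv_iff_mul_eq]
    refine orth_ext fun y => ?_
    simp only [orth_mul_apply, eichler_apply, eichlerMap_apply, QuadraticMap.polar_add_left,
      QuadraticMap.polar_add_right, QuadraticMap.polar_sub_right, QuadraticMap.polar_smul_left,
      QuadraticMap.polar_smul_right, QuadraticMap.map_smul, smul_eq_mul, haa.qa, haa.qb, haa.ab,
      haa.symm.ab, hw, ha'w, QuadraticMap.polar_comm Q w a, QuadraticMap.polar_comm Q w a',
      polar_self_two_mul]
    match_scalars <;> ring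
  exact Mem.of_smul_left ⟨hk, hkw, by
    rw [e]; exact H.mul_mem (H.mul_mem (H.inv_mem hmw) hms) (H.inv_mem hmq)⟩ haa.qb ha'w

variable [Finite F] [FiniteDimensional F V]

/-- All root elements at one hyperbolic pair give every Eichler transformation. -/
theorem commutator_le_of_pair (hQ : (QuadraticMap.polarBilin Q).Nondegenerate) (hn : 7 ≤ finrank F V)
    {e f : V} (he : Q e = 0) (hf : Q f = 0) (hef : P e f = 1)
    (hE : ∀ w, P e w = 0 → Mem H e w) (hF : ∀ w, P f w = 0 → Mem H f w) :
    commutator (orthGroup Q) ≤ H := by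
  have hef' : P f e = 1 := by rw [QuadraticMap.polar_comm, hef]
  have hee : P e e = 0 := polar_singular_self he
  have hff : P f f = 0 := polar_singular_self hf
  -- a point off the hyperplane of one of them is a translate of a multiple of the other
  have key : ∀ e f : V, Q e = 0 → Q f = 0 → P e f = 1 → (∀ w, P f w = 0 → Mem H f w) →
      (∀ w, P e w = 0 → Mem H e w) → ∀ u, Q u = 0 → P f u ≠ 0 → ∀ w, P u w = 0 → Mem H u w := by
    intro e f he hf hef hF hE u hu hc w huw
    have hef' : P f e = 1 := by rw [QuadraticMap.polar_comm, hef]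
    have hee : P e e = 0 := polar_singular_self he
    have hff : P f f = 0 := polar_singular_self hf
    set c := P f u with hcdef
    set w₀ := c⁻¹ • u - e - (c⁻¹ * P e u) • f with hw₀
    have h1 : P f w₀ = 0 := by
      simp only [hw₀, sub_eq_add_neg, ← neg_smul, QuadraticMap.polar_add_right,
        QuadraticMap.polar_smul_right, QuadraticMap.polar_neg_right, hef', hff, ← hcdef, smul_eq_mul]
      field_simp
      ring
    have h2 : P e w₀ = 0 := by
      simp only [hw₀, sub_eq_add_neg, ← neg_smul, QuadraticMap.polar_add_right,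
        QuadraticMap.polar_smul_right, QuadraticMap.polar_neg_right, hee, hef, smul_eq_mul]
      ring
    obtain ⟨hf', hfw, hm⟩ := hF w₀ h1
    set g := eichler Q f w₀ hf' hfw
    have hu' : c⁻¹ • u = e + w₀ + (c⁻¹ * P e u) • f := by rw [hw₀]; abel
    have hQw : Q w₀ = -(c⁻¹ * P e u) := by
      have h0 : Q (e + w₀ + (c⁻¹ * P e u) • f) = 0 := by
        rw [← hu', QuadraticMap.map_smul, hu, smul_zero]
      rw [QuadraticMap.map_add Q (e + w₀), QuadraticMap.map_add Q e w₀, QuadraticMap.map_smul, he, hf,
        QuadraticMap.polar_smul_right, QuadraticMap.polar_add_left, hef, h2,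
        QuadraticMap.polar_comm Q w₀ f, h1] at h0
      simp only [smul_eq_mul, mul_zero, zero_add, add_zero, mul_one] at h0
      linear_combination h0
    have hg : (g : V ≃ₗ[F] V) (c • e) = u := by
      rw [map_smul, eichler_apply, eichlerMap_apply, hef', QuadraticMap.polar_comm Q w₀ e, h2, hQw,
        one_smul, zero_add, mul_one, neg_smul, sub_neg_eq_add, ← hu', smul_smul, mul_inv_cancel₀ hc,
        one_smul]
    set w' := (g : V ≃ₗ[F] V).symm w
    have hgw : (g : V ≃ₗ[F] V) w' = w := LinearEquiv.apply_symm_apply _ _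
    have hew : P e w' = 0 := by
      rw [← hg, ← hgw, orth_polar, QuadraticMap.polar_smul_left] at huw
      exact (mul_eq_zero.1 huw).resolve_left hc
    have := (Mem.smul_left (hE (c • w') (by rw [QuadraticMap.polar_smul_right, hew, smul_zero])) hew).conj hm
    rwa [hg, hgw] at this
  have hall : ∀ u, Q u = 0 → u ≠ 0 → ∀ w, P u w = 0 → Mem H u w := by
    intro u hu hu0 w huw
    by_cases hfu : P f u = 0
    · by_cases heu : P e u = 0
      · -- move it off first
        obtain ⟨z, huz⟩ : ∃ z, P u z ≠ 0 := by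
          by_contra hcon
          push Not at hcon
          exact hu0 (hQ.1 u hcon)
        set z' := z - P f z • e - P e z • f with hz'
        have hez : P e z' = 0 := by
          simp only [hz', sub_eq_add_neg, ← neg_smul, QuadraticMap.polar_add_right,
            QuadraticMap.polar_smul_right, hee, hef, smul_eq_mul]
          ring
        have huz' : P u z' ≠ 0 := by
          simp only [hz', sub_eq_add_neg, ← neg_smul, QuadraticMap.polar_add_right,
            QuadraticMap.polar_smul_right, QuadraticMap.polar_comm Q u e, QuadraticMap.polar_comm Q u f,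
            heu, hfu, smul_eq_mul, mul_zero, add_zero]
          exact huz
        obtain ⟨he', hew', hm⟩ := hE z' hez
        set g := eichler Q e z' he' hew'
        have hgu : (g : V ≃ₗ[F] V) u = u - P z' u • e := by
          rw [eichler_apply, eichlerMap_apply, heu, zero_smul, add_zero, mul_zero, add_zero]
        have hgf : P f ((g : V ≃ₗ[F] V) u) ≠ 0 := by
          rw [hgu, sub_eq_add_neg, ← neg_smul, QuadraticMap.polar_add_right,
            QuadraticMap.polar_smul_right, hfu, hef', smul_eq_mul, mul_one, zero_add,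
            QuadraticMap.polar_comm Q z' u]
          exact neg_ne_zero.2 huz'
        have h1 := key e f he hf hef hF hE _ (by rw [g.2.2]; exact hu) hgf ((g : V ≃ₗ[F] V) w)
          (by rw [orth_polar]; exact huw)
        have h2 := h1.conj (H.inv_mem hm)
        rwa [orth_inv_apply, orth_inv_apply, LinearEquiv.symm_apply_apply,
          LinearEquiv.symm_apply_apply] at h2
      · exact key f e hf he hef' hE hF u hu heu w huw
    · exact key e f he hf hef hF hE u hu hfu w huw
  rw [omega_eq_siegel hQ hn, Subgroup.closure_le]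
  rintro _ ⟨u, v, hu, huv, -, rfl⟩
  rcases eq_or_ne u 0 with rfl | hu0
  · have : eichler Q 0 v hu huv = 1 := orth_ext fun y => by
      simp [eichler_apply, eichlerMap_apply, QuadraticMap.polar]
    rw [this]; exact H.one_mem
  · exact (hall u hu hu0 v huv).2.2

end Cfsg.Agent.Screen.TwoGen.Orth
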