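import Cfsg.Agent.Screen.TwoGen.Orth.Basic
import Cfsg.Agent.Forms.SpRegGen
import Cfsg.Agent.Forms.OrthBridge

/-!
# Two generators of the commutator subgroup of an orthogonal group

The space is the sum of `k ≥ 3` hyperbolic pairs and a small rest. One generator is a root element times
an element of order prime to the characteristic commuting with it; the other is a negative `k`-cycle on the
pairs, made special by a reflection on the rest.
-/

set_option autoImplicit false
set_option linter.unusedSectionVars false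
set_option linter.unusedSimpArgs false

namespace Cfsg.Agent.Screen.TwoGen.Orth

open Cfsg.Agent.Forms
open Module (finrank)
open scoped commutatorElement

variable {F V : Type*} [Field F] [AddCommGroup V] [Module F V] {Q : QuadraticForm F V}

local notation "P" => QuadraticMap.polar Q

/-- A family of orthogonal hyperbolic pairs. -/
structure Hyp (Q : QuadraticForm F V) {k : ℕ} (e f : Fin k → V) : Prop where
  qe : ∀ i, Q (e i) = 0
  qf : ∀ i, Q (f i) = 0
  ee : ∀ i j, QuadraticMap.polar Q (e i) (e j) = 0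
  ff : ∀ i j, QuadraticMap.polar Q (f i) (f j) = 0
  ef : ∀ i j, QuadraticMap.polar Q (e i) (f j) = if i = j then 1 else 0

/-- Orthogonal to all the pairs. -/
def Rest (Q : QuadraticForm F V) {k : ℕ} (e f : Fin k → V) (x : V) : Prop :=
  ∀ i, QuadraticMap.polar Q (e i) x = 0 ∧ QuadraticMap.polar Q (f i) x = 0

variable {k : ℕ} {e f : Fin k → V}

theorem Hyp.fe (h : Hyp Q e f) (i j : Fin k) : P (f i) (e j) = if i = j then 1 else 0 := by
  rw [QuadraticMap.polar_comm, h.ef]
  simp only [eq_comm]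

theorem Hyp.efs (h : Hyp Q e f) (i : Fin k) : P (e i) (f i) = 1 := by rw [h.ef, if_pos rfl]

theorem Hyp.fes (h : Hyp Q e f) (i : Fin k) : P (f i) (e i) = 1 := by rw [h.fe, if_pos rfl]

theorem Hyp.efn (h : Hyp Q e f) {i j : Fin k} (hij : i ≠ j) : P (e i) (f j) = 0 := by
  rw [h.ef, if_neg hij]

theorem Hyp.fen (h : Hyp Q e f) {i j : Fin k} (hij : i ≠ j) : P (f i) (e j) = 0 := by
  rw [h.fe, if_neg hij]

/-- The component orthogonal to the pairs. -/
theorem Hyp.rest (h : Hyp Q e f) (x : V) :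
    Rest Q e f (x - ∑ i, (P (f i) x • e i + P (e i) x • f i)) := by
  intro j
  constructor <;>
    rw [← QuadraticMap.polarBilin_apply_apply, map_sub, map_sum] <;>
    simp [QuadraticMap.polarBilin_apply_apply, h.ee, h.ff, h.ef, h.fe]

theorem Hyp.ext (h : Hyp Q e f) {g g' : orthGroup Q}
    (he : ∀ i, (g : V ≃ₗ[F] V) (e i) = (g' : V ≃ₗ[F] V) (e i))
    (hf : ∀ i, (g : V ≃ₗ[F] V) (f i) = (g' : V ≃ₗ[F] V) (f i))
    (hw : ∀ x, Rest Q e f x → (g : V ≃ₗ[F] V) x = (g' : V ≃ₗ[F] V) x) : g = g' := by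
  refine orth_ext fun x => ?_
  have := hw _ (h.rest x)
  simp only [map_sub, map_sum, map_add, map_smul, he, hf, sub_left_inj] at this
  exact this

theorem pow_scalar {g : orthGroup Q} {x : V} {c : F} (h : (g : V ≃ₗ[F] V) x = c • x) (n : ℕ) :
    ((g ^ n : orthGroup Q) : V ≃ₗ[F] V) x = c ^ n • x := by
  induction n with
  | zero => simp
  | succ n ih =>
    rw [pow_succ', orth_mul_apply, ih, map_smul, h, smul_smul, ← pow_succ]

theorem mem_self {H : Subgroup (orthGroup Q)} {a : V} (ha : Q a = 0) (t : F) : Mem H a (t • a) := by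
  have hw : P a (t • a) = 0 := by
    rw [QuadraticMap.polar_smul_right, polar_singular_self ha, smul_zero]
  refine ⟨ha, hw, ?_⟩
  have : eichler Q a (t • a) ha hw = 1 := orth_ext fun y => by
    rw [eichler_apply, eichlerMap_apply, QuadraticMap.map_smul, ha, QuadraticMap.polar_smul_left,
      orth_one_apply, smul_zero, zero_mul, add_zero, smul_eq_mul]
    module
  rw [this]
  exact H.one_mem

theorem eichler_pow {a w : V} (ha : Q a = 0) (hw : P a w = 0) (n : ℕ) :
    eichler Q a w ha hw ^ n = eichler Q a ((n : F) • w) ha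
      (by rw [QuadraticMap.polar_smul_right, hw, smul_zero]) := by
  induction n with
  | zero => exact orth_ext fun y => by simp [eichler_apply, eichlerMap_apply, QuadraticMap.polar]
  | succ n ih =>
    rw [pow_succ, ih, eichler_mul ha (by rw [QuadraticMap.polar_smul_right, hw, smul_zero]) hw]
    exact eichler_congr ha _ rfl (by push_cast; rw [add_smul, one_smul])

/-- A commuting product of coprime orders generates both factors. -/
theorem mem_of_coprime {G : Type*} [Group G] {H : Subgroup G} {u h : G} (hc : Commute u h) {m n : ℕ}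
    (hu : u ^ m = 1) (hh : h ^ n = 1) (hmn : Nat.Coprime m n) (hH : u * h ∈ H) : u ∈ H ∧ h ∈ H := by
  have e : (n : ℤ) * Nat.gcdB m n = 1 + (m : ℤ) * (-Nat.gcdA m n) := by
    have := Nat.gcd_eq_gcd_ab m n
    rw [hmn.gcd_eq_one, Nat.cast_one] at this
    linear_combination -this
  have h1 : (u * h) ^ ((n : ℤ) * Nat.gcdB m n) = u := by
    rw [hc.mul_zpow, zpow_mul h, zpow_natCast, hh, one_zpow, mul_one, e, zpow_add, zpow_one, zpow_mul,
      zpow_natCast, hu, one_zpow, mul_one]
  have huH : u ∈ H := h1 ▸ H.zpow_mem hH _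
  refine ⟨huH, ?_⟩
  have := H.mul_mem (H.inv_mem huH) hH
  rwa [inv_mul_cancel_left] at this

variable [Finite F] [FiniteDimensional F V]

theorem eichler_mem (hQ : (QuadraticMap.polarBilin Q).Nondegenerate) (hn : 7 ≤ finrank F V) {a w : V}
    (ha : Q a = 0) (hw : P a w = 0) : eichler Q a w ha hw ∈ commutator (orthGroup Q) := by
  rw [omega_eq_siegel hQ hn]
  exact eichler_mem_siegelGroup hQ (by omega) ha hw

/-- Two reflections at vectors of the same norm. -/
theorem reflection_pair_mem (hQ : (QuadraticMap.polarBilin Q).Nondegenerate) {a b : V} (ha : Q a ≠ 0)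
    (hab : Q a = Q b) : reflection Q a * reflection Q b ∈ commutator (orthGroup Q) := by
  have hb : Q b ≠ 0 := hab ▸ ha
  have hI := isForm_quadratic Q hQ
  have li : ∀ x : V, Q x ≠ 0 → LinearIndependent F ![x] := fun x hx => by
    rw [linearIndependent_unique_iff]
    intro h0
    exact hx (by rw [show x = (![x] : Fin 1 → V) default from rfl, h0, QuadraticMap.map_zero])
  obtain ⟨g, hg⟩ := hI.exists_isom_of_sameGram (ι := Fin 1) (v := ![b]) (w := ![a]) (li b hb) (li a ha)
    ⟨fun i j => by fin_cases i <;> fin_cases j <;> simp [polar_self_two_mul, hab],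
      fun i => by fin_cases i <;> simp [hab]⟩
  have h : ⁅g, reflection Q b⁆ = reflection Q a * reflection Q b := by
    rw [commutatorElement_def, conj_reflection, reflection_inv,
      show (g : V ≃ₗ[F] V) b = a from hg 0]
  rw [← h]
  exact Subgroup.commutator_mem_commutator (Subgroup.mem_top _) (Subgroup.mem_top _)

/-- The signed transposition of two pairs. -/
theorem exists_sw (hQ : (QuadraticMap.polarBilin Q).Nondegenerate) (hn : 7 ≤ finrank F V) (h : Hyp Q e f)
    {i j : Fin k} (hij : i ≠ j) {t : F} (ht : t ≠ 0) :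
    ∃ g ∈ commutator (orthGroup Q), (g : V ≃ₗ[F] V) (e i) = t • e j ∧
      (g : V ≃ₗ[F] V) (e j) = (-t⁻¹) • e i ∧ (g : V ≃ₗ[F] V) (f i) = t⁻¹ • f j ∧
      (g : V ≃ₗ[F] V) (f j) = (-t) • f i ∧
      ∀ x, P (e i) x = 0 → P (f i) x = 0 → P (e j) x = 0 → P (f j) x = 0 → (g : V ≃ₗ[F] V) x = x := by
  have h1 : P (e j) ((-t) • f i) = 0 := by
    rw [QuadraticMap.polar_smul_right, h.efn hij.symm, smul_zero]
  have h2 : P (e i) (t⁻¹ • f j) = 0 := by rw [QuadraticMap.polar_smul_right, h.efn hij, smul_zero]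
  set X := eichler Q (e j) ((-t) • f i) (h.qe j) h1
  set Y := eichler Q (e i) (t⁻¹ • f j) (h.qe i) h2
  refine ⟨X * Y * X, mul_mem (mul_mem (eichler_mem hQ hn _ _) (eichler_mem hQ hn _ _))
    (eichler_mem hQ hn _ _), ?_, ?_, ?_, ?_, fun x a b c d => ?_⟩
  all_goals
    simp only [orth_mul_apply, X, Y, eichler_apply, eichlerMap_apply, QuadraticMap.polar_smul_left,
      QuadraticMap.polar_smul_right, QuadraticMap.polar_add_right, QuadraticMap.polar_sub_right,
      QuadraticMap.map_smul, h.qf, h.ee, h.ff, h.efs, h.fes, h.efn hij, h.efn hij.symm, h.fen hij,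
      h.fen hij.symm, smul_eq_mul, mul_zero, zero_mul, add_zero, sub_zero, zero_add]
  · match_scalars <;> field_simp <;> ring
  · match_scalars <;> field_simp <;> ring
  · match_scalars <;> field_simp <;> ring
  · match_scalars <;> field_simp <;> ring
  · simp only [a, b, c, d, mul_zero, zero_smul, add_zero, sub_zero, zero_mul]

/-- The torus element `γ ^ 2` on one pair. -/
theorem exists_sq_tor (h : Hyp Q e f) (i : Fin k) {γ : F} (hγ : γ ≠ 0) :
    ∃ g ∈ commutator (orthGroup Q), (g : V ≃ₗ[F] V) (e i) = γ ^ 2 • e i ∧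
      (g : V ≃ₗ[F] V) (f i) = (γ ^ 2)⁻¹ • f i ∧
      ∀ x, P (e i) x = 0 → P (f i) x = 0 → (g : V ≃ₗ[F] V) x = x := by
  refine ⟨⁅reflection Q (e i - γ⁻¹ • f i), reflection Q (e i - f i)⁆,
    Subgroup.commutator_mem_commutator (Subgroup.mem_top _) (Subgroup.mem_top _), ?_, ?_, ?_⟩
  all_goals rw [commutatorElement_def, reflection_inv, reflection_inv]
  all_goals intros
  all_goals
    simp only [orth_mul_apply, reflection_apply, sub_eq_add_neg (e i), ← neg_smul,
      ← neg_one_smul F (f i), smul_smul, QuadraticMap.map_add Q, QuadraticMap.map_smul,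
      QuadraticMap.polar_add_left, QuadraticMap.polar_add_right, QuadraticMap.polar_sub_right,
      QuadraticMap.polar_smul_left, QuadraticMap.polar_smul_right, h.qe, h.qf, h.ee, h.ff, h.efs, h.fes,
      smul_eq_mul, mul_zero, zero_mul, add_zero, sub_zero, zero_add]
  · match_scalars <;> field_simp <;> ring
  · match_scalars <;> field_simp <;> ring
  · rename_i x a b
    simp [a, b]

/-- The cycle of the first `j + 1` pairs. -/
theorem exists_cycle (hQ : (QuadraticMap.polarBilin Q).Nondegenerate) (hn : 7 ≤ finrank F V)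
    (h : Hyp Q e f) : ∀ j (hj : j < k), ∃ g ∈ commutator (orthGroup Q), ∃ s : F, s ≠ 0 ∧
      (∀ i (hi : i < j), (g : V ≃ₗ[F] V) (e ⟨i, by omega⟩) = e ⟨i + 1, by omega⟩ ∧
        (g : V ≃ₗ[F] V) (f ⟨i, by omega⟩) = f ⟨i + 1, by omega⟩) ∧
      (g : V ≃ₗ[F] V) (e ⟨j, hj⟩) = s • e ⟨0, by omega⟩ ∧
      (g : V ≃ₗ[F] V) (f ⟨j, hj⟩) = s⁻¹ • f ⟨0, by omega⟩ ∧
      (∀ i : Fin k, j < i.val → (g : V ≃ₗ[F] V) (e i) = e i ∧ (g : V ≃ₗ[F] V) (f i) = f i) ∧
      ∀ x, Rest Q e f x → (g : V ≃ₗ[F] V) x = x := by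
  intro j
  induction j with
  | zero =>
    intro hj
    exact ⟨1, one_mem _, 1, one_ne_zero, fun i hi => absurd hi (Nat.not_lt_zero i), by simp, by simp,
      fun _ _ => ⟨rfl, rfl⟩, fun _ _ => rfl⟩
  | succ j ih =>
    intro hj
    obtain ⟨g, hg, s, hs, hlt, hje, hjf, hgt, hW⟩ := ih (by omega)
    have hne : (⟨j, by omega⟩ : Fin k) ≠ ⟨j + 1, hj⟩ := by simp
    obtain ⟨w, hw, w1, w2, w3, w4, w5⟩ := exists_sw hQ hn h hne (one_ne_zero (α := F))
    refine ⟨g * w, mul_mem hg hw, -s, neg_ne_zero.2 hs, fun i hi => ?_, ?_, ?_, fun i hi => ?_, fun x hx => ?_⟩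
    · rcases (by omega : i < j ∨ i = j) with hi' | rfl
      · have n1 : (⟨j, by omega⟩ : Fin k) ≠ ⟨i, by omega⟩ := by simp; omega
        have n2 : (⟨j + 1, hj⟩ : Fin k) ≠ ⟨i, by omega⟩ := by simp; omega
        rw [orth_mul_apply, orth_mul_apply, w5 _ (h.ee _ _) (h.fen n1) (h.ee _ _) (h.fen n2),
          w5 _ (h.efn n1) (h.ff _ _) (h.efn n2) (h.ff _ _)]
        exact hlt i hi'
      · rw [orth_mul_apply, orth_mul_apply, w1, w3, inv_one, one_smul, one_smul]
        exact hgt _ (Nat.lt_succ_self _)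
    · rw [orth_mul_apply, w2, map_smul, hje, smul_smul, inv_one, neg_one_mul]
    · rw [orth_mul_apply, w4, map_smul, hjf, smul_smul, neg_one_mul, inv_neg]
    · have n1 : (⟨j, by omega⟩ : Fin k) ≠ i := fun e => by rw [← e] at hi; simp at hi
      have n2 : (⟨j + 1, hj⟩ : Fin k) ≠ i := fun e => by rw [← e] at hi; simp at hi
      rw [orth_mul_apply, orth_mul_apply, w5 _ (h.ee _ _) (h.fen n1) (h.ee _ _) (h.fen n2),
        w5 _ (h.efn n1) (h.ff _ _) (h.efn n2) (h.ff _ _)]
      exact hgt i (by omega)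
    · rw [orth_mul_apply, w5 x (hx _).1 (hx _).2 (hx _).1 (hx _).2, hW x hx]

/-- The negative cycle. -/
theorem exists_negCycle (hQ : (QuadraticMap.polarBilin Q).Nondegenerate) (hn : 7 ≤ finrank F V)
    (h : Hyp Q e f) (hk : 1 ≤ k) {v : V} (hv : Rest Q e f v) (hv0 : Q v ≠ 0) :
    ∃ g ∈ commutator (orthGroup Q), (∀ i (hi : i + 1 < k),
        (g : V ≃ₗ[F] V) (e ⟨i, by omega⟩) = e ⟨i + 1, hi⟩ ∧
        (g : V ≃ₗ[F] V) (f ⟨i, by omega⟩) = f ⟨i + 1, hi⟩) ∧
      (∃ c : F, c ≠ 0 ∧ (g : V ≃ₗ[F] V) (e ⟨k - 1, by omega⟩) = c • f ⟨0, by omega⟩) ∧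
      (∃ c : F, c ≠ 0 ∧ (g : V ≃ₗ[F] V) (f ⟨k - 1, by omega⟩) = c • e ⟨0, by omega⟩) ∧
      ∀ x, Rest Q e f x → (g : V ≃ₗ[F] V) x = (reflection Q v : V ≃ₗ[F] V) x := by
  obtain ⟨p, hp, s, hs, hlt, hje, hjf, -, hW⟩ := exists_cycle hQ hn h (k - 1) (by omega)
  set z : Fin k := ⟨0, by omega⟩ with hz
  set x₀ := e z + Q v • f z with hx₀
  have hQx : Q x₀ = Q v := by
    rw [hx₀, QuadraticMap.map_add Q, QuadraticMap.map_smul, h.qe, h.qf, QuadraticMap.polar_smul_right,
      h.efs]
    simp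
  have hpair := reflection_pair_mem hQ (by rw [hQx]; exact hv0) hQx
  have hre : ∀ i, (reflection Q v : V ≃ₗ[F] V) (e i) = e i := fun i =>
    reflection_fix Q (by rw [QuadraticMap.polar_comm]; exact (hv i).1)
  have hrf : ∀ i, (reflection Q v : V ≃ₗ[F] V) (f i) = f i := fun i =>
    reflection_fix Q (by rw [QuadraticMap.polar_comm]; exact (hv i).2)
  have hxfix : ∀ x, P (e z) x = 0 → P (f z) x = 0 → (reflection Q x₀ : V ≃ₗ[F] V) x = x := fun x a b =>
    reflection_fix Q (by rw [hx₀, QuadraticMap.polar_add_left, QuadraticMap.polar_smul_left, a, b]; simp)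
  refine ⟨reflection Q x₀ * reflection Q v * p, mul_mem hpair hp, fun i hi => ?_, ?_, ?_, fun x hx => ?_⟩
  · obtain ⟨a, b⟩ := hlt i (by omega)
    have n : z ≠ ⟨i + 1, hi⟩ := by simp [hz]
    rw [orth_mul_apply, orth_mul_apply, orth_mul_apply, orth_mul_apply, a, b, hre, hrf,
      hxfix _ (h.ee _ _) (h.fen n), hxfix _ (h.efn n) (h.ff _ _)]
    exact ⟨rfl, rfl⟩
  · refine ⟨s * -Q v, mul_ne_zero hs (neg_ne_zero.2 hv0), ?_⟩
    rw [orth_mul_apply, orth_mul_apply, hje, map_smul, hre, map_smul, reflection_apply, hQx, hx₀,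
      QuadraticMap.polar_add_left, QuadraticMap.polar_smul_left, h.ee, h.fes, smul_eq_mul]
    match_scalars <;> field_simp <;> ring
  · refine ⟨s⁻¹ * -(Q v)⁻¹, mul_ne_zero (inv_ne_zero hs) (neg_ne_zero.2 (inv_ne_zero hv0)), ?_⟩
    rw [orth_mul_apply, orth_mul_apply, hjf, map_smul, hrf, map_smul, reflection_apply, hQx, hx₀,
      QuadraticMap.polar_add_left, QuadraticMap.polar_smul_left, h.efs, h.ff, smul_eq_mul]
    match_scalars <;> field_simp <;> ring
  · rw [orth_mul_apply, orth_mul_apply, hW x hx]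
    refine hxfix _ ?_ ?_
    · rw [← hre z, orth_polar]; exact (hx z).1
    · rw [← hrf z, orth_polar]; exact (hx z).2

set_option maxHeartbeats 1000000 in
/-- Two generators. -/
theorem exists_two [Fintype F] (hQ : (QuadraticMap.polarBilin Q).Nondegenerate) (hn : 7 ≤ finrank F V)
    (h : Hyp Q e f) (hk : 3 ≤ k) {a b v y : V}
    (ha : ∀ i : Fin k, i.val ≠ 2 → P (e i) a = 0 ∧ P (f i) a = 0)
    (hb : ∀ i : Fin k, i.val ≠ 2 → P (e i) b = 0 ∧ P (f i) b = 0)
    (hQa : Q a = 1) (hQb : Q b = 1)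
    (hπ : ((2 : F) ≠ 0 ∧ P a b = 0) ∨ ((2 : F) = 0 ∧ P a b = 1))
    (hv : Rest Q e f v) (hv0 : Q v ≠ 0) (hy : Rest Q e f y)
    (hS : ∃ α β : F, (reflection Q a : V ≃ₗ[F] V) ((reflection Q b : V ≃ₗ[F] V) (f ⟨2, by omega⟩)) =
      α • f ⟨2, by omega⟩ + β • e ⟨2, by omega⟩ + y)
    (hspan : ∀ x, Rest Q e f x → ∃ s t : F, x = s • y + t • (reflection Q v : V ≃ₗ[F] V) y) :
    ∃ g₁ ∈ commutator (orthGroup Q), ∃ g₂ ∈ commutator (orthGroup Q),
      commutator (orthGroup Q) ≤ Subgroup.closure {g₁, g₂} := by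
  classical
  set z : Fin k := ⟨0, by omega⟩ with hzdef
  set o : Fin k := ⟨1, by omega⟩ with hodef
  set w₂ : Fin k := ⟨2, by omega⟩ with hw2def
  have hzo : z ≠ o := by simp [hzdef, hodef]
  have hz2 : z ≠ w₂ := by simp [hzdef, hw2def]
  have ho2 : o ≠ w₂ := by simp [hodef, hw2def]
  obtain ⟨γ, hγ⟩ := IsCyclic.exists_generator (α := Fˣ)
  set g := (γ : F) with hg
  have hg0 : g ≠ 0 := γ.ne_zero
  -- the torus element
  obtain ⟨w, hw, w1, w2', w3, w4, w5⟩ := exists_sw hQ hn h hzo (t := g⁻¹) (inv_ne_zero hg0)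
  obtain ⟨w', hw', w1', w2'', w3', w4', w5'⟩ :=
    exists_sw hQ hn h hzo (t := (-1 : F)) (neg_ne_zero.2 one_ne_zero)
  obtain ⟨τ, hτ, τ1, τ2, τ3⟩ := exists_sq_tor h o hg0
  set T := τ * (w * w') with hTdef
  have hTfix : ∀ x, P (e z) x = 0 → P (f z) x = 0 → P (e o) x = 0 → P (f o) x = 0 →
      (T : V ≃ₗ[F] V) x = x := by
    intro x a b c d
    rw [hTdef, orth_mul_apply, orth_mul_apply, w5' x a b c d, w5 x a b c d, τ3 x c d]
  have hTez : (T : V ≃ₗ[F] V) (e z) = g • e z := by
    rw [hTdef, orth_mul_apply, orth_mul_apply, w1', map_smul, map_smul, w2', map_smul,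
      τ3 _ (h.ee _ _) (h.fen hzo.symm)]
    match_scalars
    field_simp
  have hTfz : (T : V ≃ₗ[F] V) (f z) = g⁻¹ • f z := by
    rw [hTdef, orth_mul_apply, orth_mul_apply, w3', map_smul, map_smul, w4, map_smul,
      τ3 _ (h.efn hzo.symm) (h.ff _ _)]
    match_scalars
    field_simp
  have hTeo : (T : V ≃ₗ[F] V) (e o) = g • e o := by
    rw [hTdef, orth_mul_apply, orth_mul_apply, w2'', map_smul, map_smul, w1, map_smul, τ1]
    match_scalars
    field_simp
  have hTfo : (T : V ≃ₗ[F] V) (f o) = g⁻¹ • f o := by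
    rw [hTdef, orth_mul_apply, orth_mul_apply, w4', map_smul, map_smul, w3, map_smul, τ2]
    match_scalars
    field_simp
  have hz2' : z.val ≠ 2 := by simp [hzdef]
  have ho2' : o.val ≠ 2 := by simp [hodef]
  have hTa : (T : V ≃ₗ[F] V) a = a := hTfix a (ha z hz2').1 (ha z hz2').2 (ha o ho2').1 (ha o ho2').2
  have hTb : (T : V ≃ₗ[F] V) b = b := hTfix b (hb z hz2').1 (hb z hz2').2 (hb o ho2').1 (hb o ho2').2
  set S := reflection Q a * reflection Q b with hSdef
  have hSfix : ∀ x, P a x = 0 → P b x = 0 → (S : V ≃ₗ[F] V) x = x := fun x h1 h2 => by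
    rw [hSdef, orth_mul_apply, reflection_fix Q h2, reflection_fix Q h1]
  have hSe : ∀ i : Fin k, i.val ≠ 2 →
      (S : V ≃ₗ[F] V) (e i) = e i ∧ (S : V ≃ₗ[F] V) (f i) = f i := fun i hi =>
    ⟨hSfix _ (by rw [QuadraticMap.polar_comm]; exact (ha i hi).1)
        (by rw [QuadraticMap.polar_comm]; exact (hb i hi).1),
      hSfix _ (by rw [QuadraticMap.polar_comm]; exact (ha i hi).2)
        (by rw [QuadraticMap.polar_comm]; exact (hb i hi).2)⟩
  have hTS : Commute T S := by
    have e1 : T * S * T⁻¹ = S := by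
      rw [hSdef, ← mul_assoc, show T * reflection Q a * reflection Q b * T⁻¹ =
        T * reflection Q a * T⁻¹ * (T * reflection Q b * T⁻¹) by group, conj_reflection, conj_reflection,
        hTa, hTb]
    exact mul_inv_eq_iff_eq_mul.1 e1
  have hne : ∀ i : Fin k, i = z ∨ i = o ∨ (i ≠ z ∧ i ≠ o) := fun i => by
    by_cases i = z <;> by_cases i = o <;> simp_all
  have hTq : T ^ (Fintype.card F - 1) = 1 := by
    have hg1 : g ^ (Fintype.card F - 1) = 1 := FiniteField.pow_card_sub_one_eq_one g hg0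
    have hg2 : (g⁻¹) ^ (Fintype.card F - 1) = 1 := by rw [inv_pow, hg1, inv_one]
    refine h.ext (fun i => ?_) (fun i => ?_) (fun x hx => ?_)
    · rcases hne i with rfl | rfl | ⟨h1, h2⟩
      · rw [pow_scalar hTez, hg1, one_smul, orth_one_apply]
      · rw [pow_scalar hTeo, hg1, one_smul, orth_one_apply]
      · rw [pow_scalar (c := (1 : F)) (by
          rw [one_smul]; exact hTfix _ (h.ee _ _) (h.fen h1.symm) (h.ee _ _) (h.fen h2.symm)),
          one_pow, one_smul, orth_one_apply]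
    · rcases hne i with rfl | rfl | ⟨h1, h2⟩
      · rw [pow_scalar hTfz, hg2, one_smul, orth_one_apply]
      · rw [pow_scalar hTfo, hg2, one_smul, orth_one_apply]
      · rw [pow_scalar (c := (1 : F)) (by
          rw [one_smul]; exact hTfix _ (h.efn h1.symm) (h.ff _ _) (h.efn h2.symm) (h.ff _ _)),
          one_pow, one_smul, orth_one_apply]
    · rw [pow_scalar (c := (1 : F)) (by
        rw [one_smul]; exact hTfix _ (hx _).1 (hx _).2 (hx _).1 (hx _).2), one_pow, one_smul, orth_one_apply]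
  -- the order of the reflection product
  obtain ⟨N, hN, hSN⟩ : ∃ N : ℕ, Nat.Coprime (Fintype.card F) N ∧ S ^ N = 1 := by
    obtain ⟨p, hp⟩ := CharP.exists F
    obtain ⟨m, hpp, hcard⟩ := FiniteField.card F p
    have hcop : ∀ N : ℕ, N.Prime → (N : F) ≠ 0 → Nat.Coprime (Fintype.card F) N := by
      intro N hNp hN0
      rw [hcard]
      refine Nat.Coprime.pow_left _ ((Nat.coprime_primes hpp hNp).2 fun e => hN0 ?_)
      rw [← e, CharP.cast_eq_zero F p]
    have hinv := reflection_mul_self Q a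
    have hinv' := reflection_mul_self Q b
    rcases hπ with ⟨h2, hab⟩ | ⟨h2, hab⟩
    · refine ⟨2, hcop 2 Nat.prime_two (by exact_mod_cast h2), ?_⟩
      have e1 : reflection Q a * reflection Q b * (reflection Q a)⁻¹ = reflection Q b := by
        rw [conj_reflection, reflection_fix Q hab]
      rw [reflection_inv] at e1
      rw [hSdef, pow_two, ← mul_assoc, e1, hinv']
    · refine ⟨3, hcop 3 Nat.prime_three (fun h3 => one_ne_zero (α := F) ?_), ?_⟩
      · push_cast at h3
        linear_combination h3 - h2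
      have e1 : reflection Q a * reflection Q b * reflection Q a = reflection Q (b - a) := by
        have := conj_reflection Q (reflection Q a) b
        rw [reflection_inv, reflection_apply, hQa, hab, inv_one, one_mul, one_smul] at this
        exact this
      have e2 : reflection Q b * reflection Q a * reflection Q b = reflection Q (b - a) := by
        have := conj_reflection Q (reflection Q b) a
        rw [reflection_inv, reflection_apply, hQb, QuadraticMap.polar_comm, hab, inv_one, one_mul,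
          one_smul] at this
        rw [this, show a - b = (-1 : F) • (b - a) by module, reflection_smul Q (neg_ne_zero.2 one_ne_zero)]
      rw [hSdef, show (reflection Q a * reflection Q b) ^ 3 =
        reflection Q a * reflection Q b * reflection Q a *
          (reflection Q b * reflection Q a * reflection Q b) by simp only [pow_succ, pow_zero, one_mul, mul_assoc],
        e1, e2, reflection_mul_self]
  set hh := T * S with hhdef
  have hhez : (hh : V ≃ₗ[F] V) (e z) = g • e z := by rw [hhdef, orth_mul_apply, (hSe z hz2').1, hTez]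
  have hheo : (hh : V ≃ₗ[F] V) (e o) = g • e o := by rw [hhdef, orth_mul_apply, (hSe o ho2').1, hTeo]
  have hhfo : (hh : V ≃ₗ[F] V) (f o) = g⁻¹ • f o := by rw [hhdef, orth_mul_apply, (hSe o ho2').2, hTfo]
  -- the generators
  set u := eichler Q (e z) (f o) (h.qe z) (h.efn hzo) with hudef
  have hcomm : Commute u hh := by
    have e1 : hh * u * hh⁻¹ = u := by
      rw [hudef, conj_eichler]
      refine orth_ext fun x => ?_
      simp only [eichler_apply, eichlerMap_apply, hhez, hhfo, QuadraticMap.polar_smul_left,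
        QuadraticMap.map_smul, h.qf, smul_eq_mul, mul_zero, zero_mul, add_zero]
      match_scalars <;> field_simp
    exact (mul_inv_eq_iff_eq_mul.1 e1).symm
  obtain ⟨c, hc, hcyc, ⟨ce, hce, hclast⟩, ⟨cf, hcf, hclast'⟩, hcrest⟩ :=
    exists_negCycle hQ hn h (by omega) hv hv0
  have hSmem : S ∈ commutator (orthGroup Q) :=
    reflection_pair_mem hQ (by rw [hQa]; exact one_ne_zero) (by rw [hQa, hQb])
  refine ⟨u * hh, mul_mem (eichler_mem hQ hn _ _) (mul_mem (mul_mem hτ (mul_mem hw hw')) hSmem),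
    c, hc, ?_⟩
  set H := Subgroup.closure ({u * hh, c} : Set (orthGroup Q)) with hH
  have hcH : c ∈ H := Subgroup.subset_closure (Or.inr rfl)
  have huq : u ^ Fintype.card F = 1 := by
    rw [hudef, eichler_pow]
    refine orth_ext fun x => ?_
    simp [eichler_apply, eichlerMap_apply, FiniteField.cast_card_eq_zero, QuadraticMap.polar]
  have hhM : hh ^ ((Fintype.card F - 1) * N) = 1 := by
    rw [hhdef, hTS.mul_pow, pow_mul T, hTq, one_pow, one_mul, mul_comm, pow_mul, hSN, one_pow]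
  have hcop : Nat.Coprime (Fintype.card F) ((Fintype.card F - 1) * N) := by
    refine Nat.Coprime.mul_right ?_ hN
    have h1 : 1 ≤ Fintype.card F := Fintype.card_pos
    rw [Nat.coprime_self_sub_right h1]
    exact Nat.coprime_one_right _
  obtain ⟨huH, hhH⟩ := mem_of_coprime (H := H) hcomm huq hhM hcop (Subgroup.subset_closure (Or.inl rfl))
  -- all roots occur
  let X : ℕ → V := fun i => if hi : i < k then e ⟨i, hi⟩ else 0
  let Y : ℕ → V := fun i => if hi : i < k then f ⟨i, hi⟩ else 0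
  have hX : ∀ i (hi : i < k), X i = e ⟨i, hi⟩ := fun i hi => dif_pos hi
  have hY : ∀ i (hi : i < k), Y i = f ⟨i, hi⟩ := fun i hi => dif_pos hi
  have hXX : ∀ i j : Fin k, Orth2 Q (e i) (e j) := fun i j => ⟨h.qe i, h.qe j, h.ee i j⟩
  have hYY : ∀ i j : Fin k, Orth2 Q (f i) (f j) := fun i j => ⟨h.qf i, h.qf j, h.ff i j⟩
  have hXY : ∀ {i j : Fin k}, i ≠ j → Orth2 Q (e i) (f j) := fun {i j} hij => ⟨h.qe i, h.qf j, h.efn hij⟩
  have hYX : ∀ {i j : Fin k}, i ≠ j → Orth2 Q (f i) (e j) := fun {i j} hij => ⟨h.qf i, h.qe j, h.fen hij⟩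
  have hxy1 : ∀ i (hi : i + 1 < k), Has H (X i) (Y (i + 1)) := by
    intro i
    induction i with
    | zero =>
      intro hi
      rw [hX 0 (by omega), hY 1 hi]
      exact ⟨1, one_ne_zero, h.qe z, by rw [one_smul]; exact h.efn hzo,
        by simpa only [one_smul] using huH⟩
    | succ i ih =>
      intro hi
      obtain ⟨t, ht, hm⟩ := ih (by omega)
      rw [hX i (by omega), hY (i + 1) (by omega)] at hm
      have := hm.conj hcH
      rw [map_smul, (hcyc i (by omega)).1, (hcyc (i + 1) hi).2] at this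
      rw [hX (i + 1) (by omega), hY (i + 1 + 1) hi]
      exact ⟨t, ht, this⟩
  have hwrap : Has H (X (k - 1)) (X 0) := by
    obtain ⟨t, ht, hm⟩ := hxy1 (k - 2) (by omega)
    rw [hX (k - 2) (by omega), hY (k - 2 + 1) (by omega)] at hm
    simp only [show k - 2 + 1 = k - 1 by omega] at hm
    have := hm.conj hcH
    rw [map_smul, (hcyc (k - 2) (by omega)).1, hclast', smul_smul] at this
    simp only [show k - 2 + 1 = k - 1 by omega] at this
    rw [hX (k - 1) (by omega), hX 0 (by omega)]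
    exact ⟨t * cf, mul_ne_zero ht hcf, this⟩
  have hyx1 : ∀ i (hi : i + 1 < k), Has H (Y i) (X (i + 1)) := by
    intro i
    induction i with
    | zero =>
      intro hi
      obtain ⟨t, ht, hm⟩ := hwrap
      rw [hX (k - 1) (by omega), hX 0 (by omega)] at hm
      have := hm.conj hcH
      rw [hclast, map_smul, (hcyc 0 hi).1] at this
      have := this.of_smul_left (h.qf _) (by rw [QuadraticMap.polar_smul_right, h.fen (by simp), smul_zero])
      rw [smul_smul] at this
      rw [hY 0 (by omega), hX 1 hi]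
      exact ⟨ce * t, mul_ne_zero hce ht, this⟩
    | succ i ih =>
      intro hi
      obtain ⟨t, ht, hm⟩ := ih (by omega)
      rw [hY i (by omega), hX (i + 1) (by omega)] at hm
      have := hm.conj hcH
      rw [map_smul, (hcyc i (by omega)).2, (hcyc (i + 1) hi).1] at this
      rw [hY (i + 1) (by omega), hX (i + 1 + 1) hi]
      exact ⟨t, ht, this⟩
  have hwrap' : Has H (Y (k - 1)) (Y 0) := by
    obtain ⟨t, ht, hm⟩ := hyx1 (k - 2) (by omega)
    rw [hY (k - 2) (by omega), hX (k - 2 + 1) (by omega)] at hm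
    simp only [show k - 2 + 1 = k - 1 by omega] at hm
    have := hm.conj hcH
    rw [map_smul, (hcyc (k - 2) (by omega)).2, hclast, smul_smul] at this
    simp only [show k - 2 + 1 = k - 1 by omega] at this
    rw [hY (k - 1) (by omega), hY 0 (by omega)]
    exact ⟨t * ce, mul_ne_zero ht hce, this⟩
  have hlt : ∀ i j : Fin k, i.val < j.val → Has H (e i) (f j) ∧ Has H (f i) (e j) := by
    have key : ∀ i j, i < j → ∀ hj : j < k, Has H (X i) (Y j) ∧ Has H (Y i) (X j) := by
      intro i j hij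
      induction j, (hij : i + 1 ≤ j) using Nat.le_induction with
      | base => exact fun hj => ⟨hxy1 i hj, hyx1 i hj⟩
      | succ j hij' ih =>
        intro hj
        obtain ⟨h1, h2⟩ := ih (by omega)
        have h3 := hxy1 j hj
        have h4 := hyx1 j hj
        rw [hX i (by omega), hY i (by omega), hX j (by omega), hY j (by omega)] at *
        rw [hX (j + 1) hj, hY (j + 1) hj] at *
        exact ⟨h1.bracket h3 (h.fes _) (h.ee _ _) (hXY (by simp; omega)) (h.ff _ _) (hXY (by simp)),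
          h2.bracket h4 (h.efs _) (h.ff _ _) (hYX (by simp; omega)) (h.ee _ _) (hYX (by simp))⟩
    intro i j hij
    have := key i.val j.val hij j.isLt
    rwa [hX i.val i.isLt, hY i.val i.isLt, hX j.val j.isLt, hY j.val j.isLt] at this
  have hef : ∀ i j : Fin k, i ≠ j → Has H (e i) (f j) := by
    intro i j hij
    rcases lt_or_gt_of_ne hij with h' | h'
    · exact (hlt i j h').1
    · exact (hlt j i h').2.symm (hYX hij.symm)
  have hfe : ∀ i j : Fin k, i ≠ j → Has H (f i) (e j) := fun i j hij =>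
    (hef j i hij.symm).symm (hXY hij.symm)
  set l : Fin k := ⟨k - 1, by omega⟩ with hldef
  rw [hX (k - 1) (by omega), hX 0 (by omega)] at hwrap
  rw [hY (k - 1) (by omega), hY 0 (by omega)] at hwrap'
  have hlz : l ≠ z := by simp [hldef, hzdef]; omega
  have hee0 : ∀ j : Fin k, j ≠ z → Has H (e j) (e z) := by
    intro j hj
    rcases eq_or_ne j l with rfl | hjl
    · exact hwrap
    · exact (hef j l hjl).bracket hwrap (h.fes l) (h.ee _ _) (hXX _ _) (h.fen hlz) (hXX _ _)
  have hff0 : ∀ j : Fin k, j ≠ z → Has H (f j) (f z) := by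
    intro j hj
    rcases eq_or_ne j l with rfl | hjl
    · exact hwrap'
    · exact (hfe j l hjl).bracket hwrap' (h.efs l) (h.ff _ _) (hYY _ _) (h.efn hlz) (hYY _ _)
  have hee : ∀ i j : Fin k, i ≠ j → Has H (e i) (e j) := by
    intro i j hij
    rcases eq_or_ne i z with rfl | hi
    · exact (hee0 j hij.symm).symm (hXX _ _)
    rcases eq_or_ne j z with rfl | hj
    · exact hee0 i hi
    exact (hee0 i hi).bracket (hfe z j hj.symm) (h.efs z) (h.efn hi) (hXX _ _) (h.ee _ _) (hYX hj.symm)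
  have hff : ∀ i j : Fin k, i ≠ j → Has H (f i) (f j) := by
    intro i j hij
    rcases eq_or_ne i z with rfl | hi
    · exact (hff0 j hij.symm).symm (hYY _ _)
    rcases eq_or_ne j z with rfl | hj
    · exact hff0 i hi
    exact (hff0 i hi).bracket (hef z j hj.symm) (h.fes z) (h.fen hi) (hYY _ _) (h.ff _ _) (hXY hj.symm)
  -- the whole field
  have hLzo : Lin H (e z) (e o) := by
    let L : AddSubgroup F :=
      { carrier := {t | Mem H (e z) (t • e o)}
        add_mem' := fun {x x'} (hx : Mem H _ (x • _)) (hx' : Mem H _ (x' • _)) =>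
          show Mem H _ ((x + x') • _) by rw [add_smul]; exact hx.add hx'
        zero_mem' := show Mem H _ ((0 : F) • _) by rw [zero_smul]; exact mem_zero (h.qe z)
        neg_mem' := fun {x} (hx : Mem H _ (x • _)) =>
          show Mem H _ ((-x) • _) by rw [neg_smul]; exact hx.neg }
    obtain ⟨t, ht, hm⟩ := hee z o hzo
    refine SpRegGen.addSubgroup_full L hγ (show t ∈ L from hm) ht fun x (hx : Mem H _ (x • _)) => ?_
    have h1 := hx.conj hhH
    rw [map_smul, hhez, hheo, smul_smul] at h1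
    have h2 := h1.of_smul_left (h.qe z) (by rw [QuadraticMap.polar_smul_right, h.ee, smul_zero])
    rw [smul_smul] at h2
    show Mem H _ ((g ^ 2 * x) • _)
    rwa [show g ^ 2 * x = g * (x * g) by ring]
  have hoz := hzo.symm
  have hLz_e : ∀ j : Fin k, j ≠ z → Lin H (e z) (e j) := by
    intro j hj
    rcases eq_or_ne j o with rfl | hjo
    · exact hLzo
    exact hLzo.bracket (hfe o j hjo.symm) (h.efs o) (h.efn hzo) (hXX _ _) (h.ee _ _) (hYX hjo.symm)
  have hLz_f : ∀ j : Fin k, j ≠ z → Lin H (e z) (f j) := by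
    intro j hj
    rcases eq_or_ne j o with rfl | hjo
    · exact (hLz_e w₂ hz2.symm).bracket (hff w₂ o ho2.symm) (h.efs w₂) (h.efn hz2) (hXY hzo)
        (h.efn ho2.symm) (hYY _ _)
    exact hLzo.bracket (hff o j hjo.symm) (h.efs o) (h.efn hzo) (hXY hj.symm) (h.efn hjo.symm) (hYY _ _)
  have hLoz : Lin H (e o) (e z) := hLzo.symm (hXX _ _)
  have hLo_e : ∀ j : Fin k, j ≠ o → Lin H (e o) (e j) := by
    intro j hj
    rcases eq_or_ne j z with rfl | hjz
    · exact hLoz
    exact hLoz.bracket (hfe z j hjz.symm) (h.efs z) (h.efn hoz) (hXX _ _) (h.ee _ _) (hYX hjz.symm)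
  have hLo_f : ∀ j : Fin k, j ≠ o → Lin H (e o) (f j) := by
    intro j hj
    rcases eq_or_ne j z with rfl | hjz
    · exact (hLo_e w₂ ho2.symm).bracket (hff w₂ z hz2.symm) (h.efs w₂) (h.efn ho2) (hXY hoz)
        (h.efn hz2.symm) (hYY _ _)
    exact hLoz.bracket (hff z j hjz.symm) (h.efs z) (h.efn hoz) (hXY hj.symm) (h.efn hjz.symm) (hYY _ _)
  have hLfzo : Lin H (f z) (e o) := (hLo_f z hzo).symm (hXY hoz)
  have hLfz_e : ∀ j : Fin k, j ≠ z → Lin H (f z) (e j) := by
    intro j hj
    rcases eq_or_ne j o with rfl | hjo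
    · exact hLfzo
    exact hLfzo.bracket (hfe o j hjo.symm) (h.efs o) (h.ff _ _) (hYX hj.symm) (h.ee _ _) (hYX hjo.symm)
  have hLfz_f : ∀ j : Fin k, j ≠ z → Lin H (f z) (f j) := by
    intro j hj
    rcases eq_or_ne j o with rfl | hjo
    · exact (hLfz_e w₂ hz2.symm).bracket (hff w₂ o ho2.symm) (h.efs w₂) (h.ff _ _) (hYY _ _)
        (h.efn ho2.symm) (hYY _ _)
    exact hLfzo.bracket (hff o j hjo.symm) (h.efs o) (h.ff _ _) (hYY _ _) (h.efn hjo.symm) (hYY _ _)
  -- the rest
  have hey : Mem H (e o) (g • y) := by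
    obtain ⟨α, β, hαβ⟩ := hS
    have hfix2 : (T : V ≃ₗ[F] V) (f w₂) = f w₂ :=
      hTfix _ (h.efn hz2) (h.ff _ _) (h.efn ho2) (h.ff _ _)
    have hfix2' : (T : V ≃ₗ[F] V) (e w₂) = e w₂ :=
      hTfix _ (h.ee _ _) (h.fen hz2) (h.ee _ _) (h.fen ho2)
    have h1 := ((hLo_f w₂ ho2.symm) 1).conj hhH
    rw [one_smul, hheo] at h1
    have e1 : (hh : V ≃ₗ[F] V) (f w₂) = α • f w₂ + β • e w₂ + y := by
      rw [hhdef, orth_mul_apply T, hSdef, orth_mul_apply (reflection Q a), hαβ, map_add, map_add, map_smul, map_smul, hfix2,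
        hfix2', hTfix _ (hy _).1 (hy _).2 (hy _).1 (hy _).2]
    rw [e1] at h1
    have h2 := h1.of_smul_left (h.qe o) (by
      simp [QuadraticMap.polar_add_right, QuadraticMap.polar_smul_right, h.efn ho2, h.ee, (hy o).1])
    have h3 := (h2.sub ((hLo_f w₂ ho2.symm) (g * α))).sub ((hLo_e w₂ ho2.symm) (g * β))
    convert h3 using 1
    module
  have hto : ∀ x, Rest Q e f x → Mem H (e o) x → Lin H (e z) x ∧ Lin H (f z) x := by
    intro x hx hm
    exact ⟨hm.move (hLz_f o hoz) (hLz_e o hoz) (hXX _ _) (h.fes o) (hx z).1 (hx o).2,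
      hm.move (hLfz_f o hoz) (hLfz_e o hoz) (hXY hoz) (h.fes o) (hx z).2 (hx o).2⟩
  have hgy : Rest Q e f (g • y) := fun i => by
    simp [QuadraticMap.polar_smul_right, (hy i).1, (hy i).2]
  obtain ⟨hzy, hfzy⟩ := hto _ hgy hey
  have hvy : Rest Q e f ((reflection Q v : V ≃ₗ[F] V) y) := fun i => by
    constructor
    · rw [← reflection_fix Q (show P v (e i) = 0 by rw [QuadraticMap.polar_comm]; exact (hv i).1),
        orth_polar]
      exact (hy i).1
    · rw [← reflection_fix Q (show P v (f i) = 0 by rw [QuadraticMap.polar_comm]; exact (hv i).2),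
        orth_polar]
      exact (hy i).2
  obtain ⟨hzy', hfzy'⟩ := hto _ hvy (by
    have h1 := (hzy g⁻¹).conj hcH
    rw [smul_smul, inv_mul_cancel₀ hg0, one_smul, hcrest y hy] at h1
    rwa [(hcyc 0 (by omega)).1] at h1)
  refine commutator_le_of_pair hQ hn (h.qe z) (h.qf z) (h.efs z) (fun x hx => ?_) (fun x hx => ?_)
  · obtain ⟨s, t, hst⟩ := hspan _ (h.rest x)
    rw [← sub_add_cancel x (∑ i, (P (f i) x • e i + P (e i) x • f i)), hst]
    refine Mem.add (Mem.add ?_ (hzy' t))
      (Finset.sum_induction _ (fun y => Mem H (e z) y) (fun _ _ => Mem.add) (mem_zero (h.qe z))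
        fun i _ => ?_)
    · have := hzy (s / g)
      rwa [smul_smul, div_mul_cancel₀ _ hg0] at this
    · rcases eq_or_ne i z with rfl | hi
      · rw [hx, zero_smul, add_zero]; exact mem_self (h.qe z) _
      · exact (hLz_e i hi _).add (hLz_f i hi _)
  · obtain ⟨s, t, hst⟩ := hspan _ (h.rest x)
    rw [← sub_add_cancel x (∑ i, (P (f i) x • e i + P (e i) x • f i)), hst]
    refine Mem.add (Mem.add ?_ (hfzy' t))
      (Finset.sum_induction _ (fun y => Mem H (f z) y) (fun _ _ => Mem.add) (mem_zero (h.qf z))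
        fun i _ => ?_)
    · have := hfzy (s / g)
      rwa [smul_smul, div_mul_cancel₀ _ hg0] at this
    · rcases eq_or_ne i z with rfl | hi
      · rw [hx, zero_smul, zero_add]; exact mem_self (h.qf z) _
      · exact (hLfz_e i hi _).add (hLfz_f i hi _)

/-- Transport to the matrix group and its central quotient. -/
theorem pomega_two {ι : Type} [Fintype ι] [DecidableEq ι] (Q' : QuadraticForm F (ι → F))
    (h : ∃ g₁ ∈ commutator (orthGroup Q'), ∃ g₂ ∈ commutator (orthGroup Q'),
      commutator (orthGroup Q') ≤ Subgroup.closure {g₁, g₂}) :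
    ∃ a b : Cfsg.POmega F ⇑Q', Subgroup.closure ({a, b} : Set (Cfsg.POmega F ⇑Q')) = ⊤ := by
  obtain ⟨g₁, h₁, g₂, h₂, hle⟩ := h
  set E := isometryEquiv Q'
  have hm : ∀ g, g ∈ commutator (orthGroup Q') → E.symm g ∈ Cfsg.Omega F ⇑Q' := fun g hg => by
    rw [mem_omega_iff, E.apply_symm_apply]; exact hg
  let a : ↥(Cfsg.Omega F ⇑Q') := ⟨E.symm g₁, hm g₁ h₁⟩
  let b : ↥(Cfsg.Omega F ⇑Q') := ⟨E.symm g₂, hm g₂ h₂⟩
  have htop : Subgroup.closure ({a, b} : Set ↥(Cfsg.Omega F ⇑Q')) = ⊤ := by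
    rw [eq_top_iff]
    intro x _
    let φ : ↥(Cfsg.Omega F ⇑Q') →* orthGroup Q' := E.toMonoidHom.comp (Subgroup.subtype _)
    have hφ : Function.Injective φ := E.injective.comp Subtype.val_injective
    have hx : φ x ∈ (Subgroup.closure ({a, b} : Set ↥(Cfsg.Omega F ⇑Q'))).map φ := by
      rw [MonoidHom.map_closure, Set.image_pair, show φ a = g₁ from E.apply_symm_apply g₁,
        show φ b = g₂ from E.apply_symm_apply g₂]
      exact hle ((mem_omega_iff Q' x.1).1 x.2)
    exact (Subgroup.mem_map_iff_mem hφ).1 hx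
  let π := QuotientGroup.mk' (Subgroup.center ↥(Cfsg.Omega F ⇑Q'))
  refine ⟨π a, π b, ?_⟩
  rw [← Set.image_pair, ← MonoidHom.map_closure, htop,
    Subgroup.map_top_of_surjective π (QuotientGroup.mk'_surjective _)]

end Cfsg.Agent.Screen.TwoGen.Orth
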